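import Cfsg.Agent.N2.Cl.RD.UMin
import Cfsg.Agent.N2.Cl.RD.Lev

/-!
# N2 (S3519), defining characteristic: the eigenvalues of unitary matrices of prime order (helper64)

* `Ev A z` : `z` is an eigenvalue; `Ev.uni` : `z ↦ (F z)⁻¹` permutes the eigenvalues of a unitary matrix;
* `exists_fam` : a basis of eigenvectors, the exponents are an orbit of `-s` of odd length (and `0`);
* **`no_fix`** : no fixed vectors in the modules given by minors of size two and three.
-/

set_option autoImplicit false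
set_option linter.unusedSectionVars false

namespace Cfsg.Agent.N2C.RD.UM

open Matrix Cfsg.Agent.TitsThree.Siegel Cfsg.Agent.TitsThree.WittFrame
open Cfsg.Agent.Omega.CR Cfsg.Agent.Omega.FOne.Lift.Sd Cfsg.Agent.H905.Md

section ev

variable {ν : Type*} [Fintype ν] [DecidableEq ν] {k : Type*} [Field k] {A : Matrix ν ν k}

/-- an eigenvalue -/
def Ev (A : Matrix ν ν k) (z : k) : Prop := ∃ v, v ≠ 0 ∧ A *ᵥ v = z • v

theorem ev_iff (z : k) : Ev A z ↔ (A - z • (1 : Matrix ν ν k)).det = 0 := by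
  rw [← Matrix.exists_mulVec_eq_zero_iff]
  refine exists_congr fun v => and_congr_right fun _ => ?_
  rw [sub_mulVec, smul_mulVec, one_mulVec, sub_eq_zero]

theorem Ev.uni (F : k →+* k) (hA : Aᵀ * A.map F = 1) {z : k} (h : Ev A z) : Ev A (F z)⁻¹ := by
  obtain ⟨v, hv, e⟩ := h
  have h1 : A.map F *ᵥ (F ∘ v) = F z • (F ∘ v) := by
    funext i
    rw [← RingHom.map_mulVec, e]
    simp
  have h2 : F z • (Aᵀ *ᵥ (F ∘ v)) = F ∘ v := by rw [← mulVec_smul, ← h1, mulVec_mulVec, hA, one_mulVec]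
  have h3 : F ∘ v ≠ 0 := fun h => hv (funext fun i => (map_eq_zero F).1 (congrFun h i))
  have h4 : F z ≠ 0 := fun h => h3 (by rw [← h2, h, zero_smul])
  have h5 : Ev Aᵀ (F z)⁻¹ := ⟨_, h3, by rw [eq_inv_smul_iff₀ h4, h2]⟩
  rw [ev_iff] at h5 ⊢
  rwa [← det_transpose, transpose_sub, transpose_smul, transpose_one]

theorem exists_ev [IsAlgClosed k] {r : ℕ} (hr : r.Prime) (hk : (r : k) ≠ 0) (h1 : A ^ r = 1) (h2 : A ≠ 1) :
    ∃ z, IsPrimitiveRoot z r ∧ Ev A z := by
  classical
  have : NeZero (r : k) := ⟨hk⟩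
  have : NeZero r := ⟨hr.ne_zero⟩
  obtain ⟨ζ, hζ⟩ := HasEnoughRootsOfUnity.exists_primitiveRoot k r
  have hD : Dg (toLin' A) (Polynomial.nthRootsFinset r (1 : k)) := by
    refine dg_of_aeval ?_
    rw [← Polynomial.X_pow_sub_one_eq_prod hr.pos hζ, map_sub, map_pow, Polynomial.aeval_X, map_one, ← toLin'_pow, h1,
      toLin'_one]
    exact sub_self _
  by_contra hc
  refine h2 ?_
  have h3 : (⊤ : Submodule k (ν → k)) ≤ Module.End.eigenspace (toLin' A) 1 := by
    rw [← hD]
    refine iSup_le fun z v hv => ?_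
    by_cases hz : z.1 = 1
    · rwa [hz] at hv
    by_cases h0 : v = 0
    · rw [h0]; exact zero_mem _
    refine absurd ⟨z.1, ?_, v, h0, by rw [← toLin'_apply]; exact Module.End.mem_eigenspace_iff.1 hv⟩ hc
    have := Fact.mk hr
    have h4 := orderOf_eq_prime ((Polynomial.mem_nthRootsFinset hr.pos _).1 z.2) hz
    have h5 := IsPrimitiveRoot.orderOf z.1
    rwa [h4] at h5
  refine toLin'.injective (LinearMap.ext fun v => ?_)
  rw [Module.End.mem_eigenspace_iff.1 (h3 Submodule.mem_top), toLin'_one, one_smul, LinearMap.id_apply]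

/-- eigenvectors for as many distinct eigenvalues as the dimension -/
theorem exists_span {α : Type*} [Fintype α] (l : α → k) (hl : Function.Injective l) (h : ∀ a, Ev A (l a))
    (hc : Fintype.card α = Fintype.card ν) [Nonempty α] :
    ∃ w : α → ν → k, Submodule.span k (Set.range w) = ⊤ ∧ ∀ a, A *ᵥ w a = l a • w a := by
  choose w h0 hw using h
  refine ⟨w, LinearIndependent.span_eq_top_of_card_eq_finrank ?_ (by rw [hc, Module.finrank_fintype_fun_eq_card]), hw⟩
  exact Module.End.eigenvectors_linearIndependent' (toLin' A) l hl w fun a =>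
    ⟨Module.End.mem_eigenspace_iff.2 (by rw [toLin'_apply, hw]), h0 a⟩

end ev

/-! ### sums of exponents -/

section zm

variable {r : ℕ} [hr : Fact r.Prime] {x : ZMod r} {h : ℕ}

/-- the orbit -/
def ob (x : ZMod r) (h : ℕ) : Finset (ZMod r) := (Finset.range h).image (x ^ ·)

theorem ob_card (ho : orderOf x = h) : (ob x h).card = h := by
  rw [ob, Finset.card_image_of_injOn, Finset.card_range]
  rw [Finset.coe_range, ← ho]
  exact pow_injOn_Iio_orderOf

theorem ob_pow (ho : orderOf x = h) {a : ZMod r} (ha : a ∈ ob x h) : a ^ h = 1 := by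
  obtain ⟨i, -, rfl⟩ := Finset.mem_image.1 ha
  rw [← pow_mul, mul_comm, pow_mul, ← ho, pow_orderOf_eq_one, one_pow]

theorem ob_zero (ho : orderOf x = h) (h0 : h ≠ 0) : (0 : ZMod r) ∉ ob x h := fun ha => by
  have h1 := ob_pow ho ha
  rw [zero_pow h0] at h1
  exact zero_ne_one h1

theorem ob_sum (ho : orderOf x = h) (h1 : 1 < h) : ∑ a ∈ ob x h, a = 0 := by
  rw [ob, Finset.sum_image (by rw [Finset.coe_range, ← ho]; exact pow_injOn_Iio_orderOf)]
  exact (ho ▸ IsPrimitiveRoot.orderOf x).geom_sum_eq_zero h1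

theorem sum_two (ho : orderOf x = h) (hh : Odd h) (h2 : r ≠ 2) {T : Finset (ZMod r)} (hT : T ⊆ insert 0 (ob x h))
    (hc : T.card = 2) : ∑ a ∈ T, a ≠ 0 := by
  obtain ⟨a, b, hab, rfl⟩ := Finset.card_eq_two.1 hc
  rw [Finset.sum_pair hab]
  intro e
  have hb : b = -a := eq_neg_of_add_eq_zero_right e
  have ha0 : a ≠ 0 := fun h0 => hab (by rw [hb, h0, neg_zero])
  have ha := (Finset.mem_insert.1 (hT (Finset.mem_insert_self _ _))).resolve_left ha0
  have hb' := (Finset.mem_insert.1 (hT (Finset.mem_insert_of_mem (Finset.mem_singleton_self _)))).resolve_left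
    (by rw [hb]; exact neg_ne_zero.2 ha0)
  have h3 := ob_pow ho hb'
  rw [hb, hh.neg_pow, ob_pow ho ha] at h3
  have h4 : ((2 : ℕ) : ZMod r) = 0 := by
    push_cast
    linear_combination -h3
  exact h2 ((Nat.prime_dvd_prime_iff_eq hr.out Nat.prime_two).1 ((ZMod.natCast_eq_zero_iff 2 r).1 h4))

theorem sum_three (ho : orderOf x = 5) (h2 : r ≠ 2) {T : Finset (ZMod r)} (hT : T ⊆ insert 0 (ob x 5))
    (hc : T.card = 3) : ∑ a ∈ T, a ≠ 0 := by
  have key : ∀ T : Finset (ZMod r), T ⊆ insert 0 (ob x 5) → T.card = 3 → 0 ∈ T → ∑ a ∈ T, a ≠ 0 := fun T hT hc h0 => by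
    rw [← Finset.sum_erase T (f := fun a => a) (a := 0) rfl]
    exact sum_two ho (by decide) h2 ((Finset.erase_subset _ _).trans hT) (by rw [Finset.card_erase_of_mem h0, hc])
  by_cases h0 : 0 ∈ T
  · exact key T hT hc h0
  have h5 := ob_zero ho (by decide)
  have h1 := key _ (Finset.sdiff_subset (t := T))
    (by rw [Finset.card_sdiff_of_subset hT, Finset.card_insert_of_notMem h5, ob_card ho, hc])
    (Finset.mem_sdiff.2 ⟨Finset.mem_insert_self _ _, h0⟩)
  have h3 := Finset.sum_sdiff (f := fun a => a) hT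
  rw [Finset.sum_insert h5, ob_sum ho (by decide), add_zero] at h3
  intro e
  rw [e, add_zero] at h3
  exact h1 h3

end zm

section main

variable {ν : Type*} [Fintype ν] [DecidableEq ν] {k : Type*} [Field k] [IsAlgClosed k] {r : ℕ} [hr : Fact r.Prime]

/-- the basis of eigenvectors -/
theorem exists_fam {A : Matrix ν ν k} (F : k →+* k) {s : ℕ} (hF : ∀ x, F x = x ^ s) (hA : Aᵀ * A.map F = 1)
    (hk : (r : k) ≠ 0) (h1 : A ^ r = 1) (h2 : A ≠ 1) {h : ℕ} (ho : orderOf (-(s : ZMod r)) = h) (h0 : h ≠ 0)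
    (hc : Fintype.card ν = h ∨ (Fintype.card ν = h + 1 ∧ Ev A 1)) :
    ∃ (ψ : AddChar (ZMod r) k) (Z : Finset (ZMod r)) (w : Z → ν → k), (∀ a, ψ a = 1 → a = 0) ∧
      Z ⊆ insert 0 (ob (-(s : ZMod r)) h) ∧ Submodule.span k (Set.range w) = ⊤ ∧ ∀ a, A *ᵥ w a = ψ a • w a := by
  have : NeZero r := ⟨hr.out.ne_zero⟩
  obtain ⟨z, hz, hE⟩ := exists_ev hr.out hk h1 h2
  let ψ := AddChar.zmodChar r hz.pow_eq_one
  have hψ : ∀ a, ψ a = 1 → a = 0 := fun a =>
    (AddChar.IsPrimitive.zmod_char_eq_one_iff r (AddChar.zmodChar_primitive_of_primitive_root r hz) a).1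
  have hinj : Function.Injective ψ := fun a b e => by
    refine sub_eq_zero.1 (hψ _ ?_)
    rw [AddChar.map_sub_eq_div, e, div_self (fun h => by
      have h3 := ψ.map_add_eq_mul b (-b)
      rw [add_neg_cancel, ψ.map_zero_eq_one, h, zero_mul] at h3
      exact one_ne_zero h3)]
  have hO : ∀ i : ℕ, Ev A (ψ ((-(s : ZMod r)) ^ i)) := by
    intro i
    induction i with
    | zero =>
      have h3 := AddChar.zmodChar_apply' hz.pow_eq_one 1
      rw [Nat.cast_one, pow_one] at h3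
      rw [pow_zero]
      exact h3 ▸ hE
    | succ i ih =>
      have h3 := ih.uni F hA
      rwa [hF, ← AddChar.map_nsmul_eq_pow, ← AddChar.map_neg_eq_inv, nsmul_eq_mul, ← neg_mul, ← pow_succ'] at h3
  have hO' : ∀ a ∈ ob (-(s : ZMod r)) h, Ev A (ψ a) := fun a ha => by
    obtain ⟨i, -, rfl⟩ := Finset.mem_image.1 ha
    exact hO i
  rcases hc with hc | ⟨hc, hv⟩
  · have : Nonempty (ob (-(s : ZMod r)) h) := (Finset.card_ne_zero.1 (by rw [ob_card ho]; exact h0)).to_subtype
    obtain ⟨w, hw⟩ := exists_span (fun a : ob (-(s : ZMod r)) h => ψ a) (hinj.comp Subtype.val_injective)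
      (fun a => hO' _ a.2) (by rw [Fintype.card_coe, ob_card ho, hc])
    exact ⟨ψ, _, w, hψ, Finset.subset_insert _ _, hw⟩
  · have : Nonempty (insert 0 (ob (-(s : ZMod r)) h) : Finset (ZMod r)) := (Finset.insert_nonempty _ _).to_subtype
    obtain ⟨w, hw⟩ := exists_span (fun a : (insert 0 (ob (-(s : ZMod r)) h) : Finset (ZMod r)) => ψ a)
      (hinj.comp Subtype.val_injective) (fun a => by
        rcases Finset.mem_insert.1 a.2 with e | e
        · rw [e, ψ.map_zero_eq_one]; exact hv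
        · exact hO' _ e) (by rw [Fintype.card_coe, Finset.card_insert_of_notMem (ob_zero ho h0), ob_card ho, hc])
    exact ⟨ψ, _, w, hψ, le_rfl, hw⟩

variable {K : Type*} [Field K] [Finite K] (j : K →+* k) {H : HForm K (ν → K)} {n : ℕ} {Fr : Frame H (Fin n)} {o : Fin n}
  {Y E : Type*} [Group Y] [AddCommGroup E] [Module k E] [FiniteDimensional k E] {ρ : Y →* Module.End k E}
  {τ : Y →* ((ν → K) ≃ₗ[K] (ν → K))}

omit [IsAlgClosed k] hr [Finite K] in
theorem mk_pow (g : (ν → K) ≃ₗ[K] (ν → K)) (i : ℕ) : mk j (g ^ i) = mk j g ^ i := by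
  induction i with
  | zero => rw [pow_zero, pow_zero, mk_one]
  | succ i ih => rw [pow_succ, pow_succ, mk_mul, ih]

omit [IsAlgClosed k] hr [Finite K] in
theorem mk_uni (F : k →+* k) {s : ℕ} (hF : ∀ x, F x = x ^ s) (hH : ∀ v w, H.h v w = ∑ i, v i * w i ^ s) (hs : s ≠ 0)
    {g : (ν → K) ≃ₗ[K] (ν → K)} (hg : H.IsIso g) : (mk j g)ᵀ * (mk j g).map F = 1 := by
  ext a b
  have h1 := congrArg j (hg (Pi.single a 1) (Pi.single b 1))
  rw [hH, hH, map_sum] at h1
  rw [mul_apply]
  refine (Finset.sum_congr rfl fun i _ => ?_).trans (h1.trans ?_)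
  · rw [transpose_apply, map_apply, hF, map_mul, map_pow]
    rfl
  · rw [Finset.sum_eq_single a (fun i _ hi => by rw [Pi.single_eq_of_ne hi, zero_mul]) (fun h => absurd (Finset.mem_univ _) h),
      Pi.single_eq_same, one_mul, one_apply]
    split_ifs with e
    · rw [e, Pi.single_eq_same, one_pow, map_one]
    · rw [Pi.single_eq_of_ne e, zero_pow hs, map_zero]

/-- **no fixed vectors** -/
theorem no_fix (hirr : ∀ L : Submodule k E, Ivt ρ ⊤ L → L = ⊥ ∨ L = ⊤) {ψ : Module.Dual k E} {v : E} (h1 : ψ v = 1)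
    (hco : ∀ g, ψ (ρ g v) = j (Mx Fr o (τ g)).det) (F : k →+* k) {s : ℕ} (hF : ∀ x, F x = x ^ s)
    (hH : ∀ v w, H.h v w = ∑ i, v i * w i ^ s) (hK : Nat.card K = s ^ 2) {u : Y} (hi : H.IsIso (τ u)) (hk : (r : k) ≠ 0)
    (h2 : r ≠ 2) (hu : τ u ^ r = 1) (hu1 : τ u ≠ 1) {h : ℕ} (ho : orderOf (-(s : ZMod r)) = h)
    (hc : (h = 5 ∧ Fintype.card ν = 6 ∧ ((o : ℕ) = 1 ∨ (o : ℕ) = 2)) ∨ (h = 7 ∧ Fintype.card ν = 7 ∧ (o : ℕ) = 1)) :
    eE (ρ u) 1 = 0 := by
  classical
  have hs : s ≠ 0 := by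
    rintro rfl
    exact absurd hK (by rw [zero_pow two_ne_zero]; exact Nat.card_pos.ne')
  have hm1 : mk j (τ u) ≠ 1 := fun e => hu1 (LinearEquiv.ext fun x => by
    have h3 := mk_mulVec j (τ u) x
    rw [e, one_mulVec] at h3
    exact funext fun i => j.injective (congrFun h3 i).symm)
  obtain ⟨χ, Z, w, hχ, hZ, hw, hl⟩ := exists_fam F hF (mk_uni j F hF hH hs hi) hk (by rw [← mk_pow, hu, mk_one]) hm1 ho
    (by omega) (by
      rcases hc with ⟨rfl, hc, -⟩ | ⟨rfl, hc, -⟩
      · refine Or.inr ⟨hc, ?_⟩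
        by_contra hv
        have h3 := Rg.dvd_of_fpf (r := r) ((τ u : (ν → K) ≃ₗ[K] (ν → K)) : Module.End K (ν → K))
          (by
            have h3 := map_pow (LinearEquiv.automorphismGroup.toLinearMapMonoidHom (R := K) (M := ν → K)) (τ u) r
            rw [hu, map_one] at h3
            exact h3.symm) fun x hx => by
            by_contra h0
            refine hv ⟨j ∘ x, fun e => h0 (funext fun i => (map_eq_zero j).1 (congrFun e i)), ?_⟩
            rw [mk_mulVec, one_smul]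
            exact congrArg (j ∘ ·) hx
        rw [Module.finrank_fintype_fun_eq_card, hc, hK, ← pow_mul] at h3
        have h4 : (-(s : ZMod r)) ^ (2 * 6) = 1 := by
          have h5 := (ZMod.natCast_eq_zero_iff _ r).2 h3
          rw [Nat.cast_sub (Nat.one_le_pow _ _ (Nat.pos_of_ne_zero hs)), Nat.cast_pow, Nat.cast_one, sub_eq_zero] at h5
          rw [Even.neg_pow (by decide), h5]
        exact absurd (ho ▸ orderOf_dvd_of_pow_eq_one h4) (by decide)
      · exact Or.inl hc)
  refine eE_zero j hirr h1 hco hw hl one_ne_zero fun f hf e => ?_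
  have hf' : Function.Injective fun i => (f i : ZMod r) := Subtype.val_injective.comp hf
  have h3 : ∑ a ∈ Finset.univ.image fun i => (f i : ZMod r), a = 0 := by
    rw [Finset.sum_image fun a _ b _ e => hf' e]
    refine hχ _ (Eq.trans ?_ e)
    exact map_prod χ.toMonoidHom (fun i => Multiplicative.ofAdd (f i : ZMod r)) Finset.univ
  have h4 : (Finset.univ.image fun i => (f i : ZMod r)) ⊆ insert 0 (ob (-(s : ZMod r)) h) := fun a ha => by
    obtain ⟨i, -, rfl⟩ := Finset.mem_image.1 ha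
    exact hZ (f i).2
  have h5 : (Finset.univ.image fun i => (f i : ZMod r)).card = o + 1 := by
    rw [Finset.card_image_of_injective _ hf', Finset.card_univ, Fintype.card_subtype, ← Fin.card_Iic]
    exact congrArg Finset.card (by ext i; simp)
  rcases hc with ⟨rfl, -, e | e⟩ | ⟨rfl, -, e⟩
  · exact sum_two ho (by decide) h2 h4 (by rw [h5, e]) h3
  · exact sum_three ho h2 h4 (by rw [h5, e]) h3
  · exact sum_two ho (by decide) h2 h4 (by rw [h5, e]) h3

end main

end Cfsg.Agent.N2C.RD.UM
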